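import Cfsg.Agent.H960.TL.Main
import Cfsg.Agent.H311.TC6.GF
import Cfsg.Agent.H46.TL.Ord

/-!
# One class of prime order in `SL₇(q)`, `q ≥ 3` (helper563, S2452, row `E₈(q)`)

`seven` : from Theorem L (`H960.TL.fac`) and a primitive prime divisor `r` of `q ^ 7 - 1`.
-/

set_option autoImplicit false

namespace Cfsg.Agent.H563.TW

open Matrix Polynomial

universe u

/-- **`SL₇(q)`.** -/
theorem seven (K : Type u) [Field K] [Finite K] (h3 : 3 ≤ Nat.card K) :
    ∃ (r : ℕ) (c : SpecialLinearGroup (Fin 7) K), r.Prime ∧ r.Coprime 6 ∧ r ≠ 7 ∧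
      (r ∣ ∑ a ∈ Finset.range 7, Nat.card K ^ a) ∧ Irreducible (c : Matrix (Fin 7) (Fin 7) K).charpoly ∧
      c ^ r = 1 ∧ orderOf c = r ∧
      ∀ A : SpecialLinearGroup (Fin 7) K,
        (∀ a : K, (A : Matrix (Fin 7) (Fin 7) K) ≠ a • (1 : Matrix (Fin 7) (Fin 7) K)) →
        ∃ g h : SpecialLinearGroup (Fin 7) K, A = (g * c * g⁻¹) * (h * c * h⁻¹) := by
  have hq : 2 ≤ Nat.card K := by omega
  obtain ⟨r, hr, h5, hiff⟩ := H311.TC6.exists_five hq (s := 7) (by norm_num) (by rintro ⟨-, h⟩; norm_num at h)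
  have hrq : ¬ r ∣ Nat.card K - 1 := by
    intro h
    have := Nat.le_of_dvd (by norm_num) ((hiff 1).1 (by rwa [pow_one]))
    omega
  obtain ⟨f, f1, f2, f3, f4, f5, f6⟩ := H311.TC6.pf_of K (n := 7) (N := r) (by norm_num) ((hiff _).2 dvd_rfl)
    (fun k hk hks h => by
      have := Nat.le_of_dvd hk ((hiff k).1 h)
      omega)
    (fun j hj h => by
      obtain ⟨-, hj2⟩ := H311.TC6.not_dvd_add h5 hiff hj h
      omega)
    ((hr.coprime_iff_not_dvd).2 hrq)
  have h0 : f.coeff 0 ≠ 0 := by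
    intro h
    rw [h, mul_zero] at f6
    exact zero_ne_one f6
  obtain ⟨c, hc⟩ := H46.TL.exists_sl f1 f3 f6
  have hcr : c ^ r = 1 := H46.TL.sl_pow (by rw [hc]; exact (f5 r).2 dvd_rfl)
  have hci : Irreducible (c : Matrix (Fin 7) (Fin 7) K).charpoly := by rw [hc]; exact f2
  have hsum : r ∣ ∑ a ∈ Finset.range 7, Nat.card K ^ a := by
    have h1 : (Nat.card K - 1) * ∑ a ∈ Finset.range 7, Nat.card K ^ a = Nat.card K ^ 7 - 1 := by
      obtain ⟨k, hk⟩ : ∃ k, Nat.card K = k + 1 := ⟨Nat.card K - 1, by omega⟩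
      rw [hk, Nat.add_sub_cancel, ← geom_sum_mul_add, Nat.add_sub_cancel, mul_comm]
    have h2 : r ∣ (Nat.card K - 1) * ∑ a ∈ Finset.range 7, Nat.card K ^ a := by
      rw [h1]
      exact (hiff 7).2 dvd_rfl
    exact (hr.dvd_mul.1 h2).resolve_left hrq
  have h7 : r ≠ 7 := by
    rintro rfl
    have : Fact (Nat.Prime 7) := ⟨hr⟩
    have h1 : (Nat.card K : ZMod 7) ≠ 0 := by
      intro h
      have h2 := (hiff 7).2 dvd_rfl
      have h4 : 7 ∣ Nat.card K ^ 7 := dvd_pow ((ZMod.natCast_eq_zero_iff _ _).1 h) (by norm_num)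
      have h6 : 1 ≤ Nat.card K ^ 7 := Nat.one_le_pow _ _ (by omega)
      omega
    have h2 := ZMod.pow_card_sub_one_eq_one h1
    have h4 : 7 ∣ Nat.card K ^ 6 - 1 := by
      rw [← ZMod.natCast_eq_zero_iff, Nat.cast_sub (Nat.one_le_pow _ _ (by omega))]
      push_cast
      rw [sub_eq_zero]
      exact h2
    have := (hiff 6).1 h4
    omega
  have hc1 : c ≠ 1 := by
    rintro rfl
    have h1 : (1 : SpecialLinearGroup (Fin 7) K) ^ 1 = 1 := one_pow 1
    have h2 : f ∣ X ^ 1 - 1 := by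
      rw [← hc]
      have h4 : (1 : SpecialLinearGroup (Fin 7) K).1.charpoly = (X - 1) ^ 7 := by
        change (1 : Matrix (Fin 7) (Fin 7) K).charpoly = _
        rw [Matrix.charpoly_one, Fintype.card_fin]
      exfalso
      rw [h4] at hci
      exact (hci.isUnit_or_isUnit (pow_succ (X - 1 : K[X]) 6)).elim
        (fun h => Polynomial.not_isUnit_X_sub_C (1 : K) (by
          rw [Polynomial.C_1]
          exact isUnit_of_dvd_unit (dvd_pow_self _ (by norm_num)) h))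
        (fun h => Polynomial.not_isUnit_X_sub_C (1 : K) (by rwa [Polynomial.C_1]))
    have := (f5 1).1 h2
    have := Nat.dvd_one.1 this
    omega
  have hord : orderOf c = r := by
    have : Fact r.Prime := ⟨hr⟩
    exact orderOf_eq_prime hcr hc1
  refine ⟨r, c, hr, H311.TC6.cop_six hr h5, h7, hsum, hci, hcr, hord, fun A hA => ?_⟩
  obtain ⟨X, Y, hXY, hX, hY⟩ := H960.TL.fac h3 (by norm_num : 3 ≤ 7) f1 f1 f3 f3 f2 f2 f6 f6
    (fun A c hA => H311.TC6.ex_of f1 f2 f3 (by norm_num) f5 h0 hr h5 dvd_rfl hiff (Or.inl (by decide)) A c hA)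
    A.1 A.2 hA
  obtain ⟨g, hg⟩ := H46.TL.sl_conj (M := X) hci (by rw [hX, hc])
  obtain ⟨k, hk⟩ := H46.TL.sl_conj (M := Y) hci (by rw [hY, hc])
  refine ⟨g, k, Subtype.ext ?_⟩
  change A.1 = (g.1 * c.1 * g⁻¹.1) * (k.1 * c.1 * k⁻¹.1)
  rw [← hg, ← hk, hXY]

end Cfsg.Agent.H563.TW
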