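import Cfsg.Agent.H122.SX.ERow
import Cfsg.Agent.H563.TW.Seven
import Cfsg.Agent.H588.TW.Defs

/-!
# S2452, row `E₈(q)`, `q ≥ 3` (helper149, helper122, helper240, helper563)

`pp_E8` : one class of prime order prime to 6; `t52_E8` : the row predicate.
-/

set_option autoImplicit false

namespace Cfsg.Agent.H563.TW

open Cfsg.Lie

universe u

/-- **`E₈(q)`, `q ≥ 3`: one class of prime order.** -/
theorem pp_E8 {K : Type u} [Field K] [Finite K] (h3 : 3 ≤ Nat.card K) :
    Cfsg.Agent.H494.TC.PP ↥(chevE8.group K) := by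
  obtain ⟨r, c, hr, h6, h7, hd, hirr, hc, -, hcc⟩ := seven K h3
  exact Cfsg.Agent.H122.SX.E127.pp_of_seven h3 hr h6 h7 hd hirr hc hcc

theorem not_comm {K : Type u} [Field K] [Finite K] : ¬ IsMulCommutative ↥(chevE8.group K) :=
  (Cfsg.Agent.S1054.result (F := K) chevE8 (by simp)).2

theorem t52_E8 {K : Type u} [Field K] [Finite K] (h3 : 3 ≤ Nat.card K) :
    Cfsg.Agent.H588.TW.T52 ↥(chevE8.group K) :=
  Cfsg.Agent.H588.TW.T52.of_pp not_comm (pp_E8 h3)

end Cfsg.Agent.H563.TW
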